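import Mathlib
import Cfsg.Prelude.Def_Blocks

/-! Ladder RK, rung BIJ. -/

set_option autoImplicit false
open Cfsg

namespace Cfsg.Agent.Lib.Helper81.RK

theorem bij_one {X : Type*} [Group X] {p : ℕ} (hp : p.Prime) (c : X) (k m : ℕ)
    (h1 : c ^ (p ^ k) = 1) (h2 : c ^ m = 1) (hm : ¬ p ∣ m) : c = 1 := by
  have hcop : Nat.Coprime (p ^ k) m := Nat.Coprime.pow_left k ((Nat.Prime.coprime_iff_not_dvd hp).2 hm)
  have d1 := orderOf_dvd_of_pow_eq_one h1
  have d2 := orderOf_dvd_of_pow_eq_one h2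
  have d3 := Nat.dvd_gcd d1 d2
  rw [hcop.gcd_eq_one] at d3
  exact orderOf_eq_one_iff.1 (Nat.dvd_one.1 d3)

open Classical in
theorem bij {H : Type*} [Group H] [Fintype H] {p : ℕ} [Fact p.Prime] (N : Subgroup H) [N.Normal]
    [Fintype (H ⧸ N)] (hN : IsPGroup p N) (hc : N ≤ Subgroup.center H) (φ : H ⧸ N → ℂ) :
    ∑ h : H, (if IsPRegular p h then φ (h : H ⧸ N) else 0)
      = ∑ q : H ⧸ N, (if IsPRegular p q then φ q else 0) := by
  have hp : p.Prime := Fact.out
  rw [← Finset.sum_filter, ← Finset.sum_filter]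
  refine Finset.sum_bij (fun h _ => (h : H ⧸ N)) ?_ ?_ ?_ ?_
  · intro h hh
    rw [Finset.mem_filter] at hh ⊢
    refine ⟨Finset.mem_univ _, ?_⟩
    intro hd
    apply hh.2
    exact hd.trans (orderOf_map_dvd (QuotientGroup.mk' N) h)
  · intro h hh h' hh' heq
    rw [Finset.mem_filter] at hh hh'
    have hcN : h⁻¹ * h' ∈ N := QuotientGroup.eq.1 heq
    have hcen := hc hcN
    rw [Subgroup.mem_center_iff] at hcen
    obtain ⟨k, hk⟩ := hN ⟨h⁻¹ * h', hcN⟩
    have hk' : (h⁻¹ * h') ^ (p ^ k) = 1 := by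
      have := congrArg Subtype.val hk
      simpa using this
    have hcomm : Commute h⁻¹ h' := by
      have h1 := hcen h
      -- h * (h⁻¹ * h') = (h⁻¹ * h') * h
      have h2 : h' = h⁻¹ * h' * h := by
        rw [← h1]; group
      have h3 : h * h' = h' * h := by
        calc h * h' = h * (h⁻¹ * h' * h) := by rw [← h2]
          _ = h' * h := by group
      exact (Commute.inv_left (show Commute h h' from h3))
    have hm : (h⁻¹ * h') ^ (orderOf h * orderOf h') = 1 := by
      rw [hcomm.mul_pow, inv_pow, pow_mul, pow_orderOf_eq_one, one_pow, inv_one, one_mul, mul_comm, pow_mul,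
        pow_orderOf_eq_one, one_pow]
    have hnd : ¬ p ∣ orderOf h * orderOf h' := by
      intro hd
      rcases (Nat.Prime.dvd_mul hp).1 hd with h1 | h1
      · exact hh.2 h1
      · exact hh'.2 h1
    have := bij_one hp _ k _ hk' hm hnd
    exact (inv_mul_eq_one.1 this)
  · intro q hq
    rw [Finset.mem_filter] at hq
    obtain ⟨h, rfl⟩ := QuotientGroup.mk_surjective q
    obtain ⟨k, m, hm, hkm⟩ := Nat.exists_eq_pow_mul_and_not_dvd (orderOf_pos h).ne' p hp.ne_one
    have hcop : Nat.Coprime (p ^ k) (orderOf (h : H ⧸ N)) :=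
      Nat.Coprime.pow_left k ((Nat.Prime.coprime_iff_not_dvd hp).2 hq.2)
    obtain ⟨j, hj⟩ := exists_pow_eq_self_of_coprime hcop
    refine ⟨(h ^ (p ^ k)) ^ j, ?_, ?_⟩
    · rw [Finset.mem_filter]
      refine ⟨Finset.mem_univ _, ?_⟩
      intro hd
      apply hm
      refine hd.trans (orderOf_dvd_of_pow_eq_one ?_)
      rw [← pow_mul, ← pow_mul, show p ^ k * (j * m) = (p ^ k * m) * j by ring, ← hkm, pow_mul,
        pow_orderOf_eq_one, one_pow]
    · rw [QuotientGroup.mk_pow, QuotientGroup.mk_pow]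
      exact hj
  · intro h _
    rfl

end Cfsg.Agent.Lib.Helper81.RK
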