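import Cfsg.Agent.Lib.Helper81.CY3.Defs
import Cfsg.Agent.Lib.Helper81.BrauerFeit

/-! Ladder RK (helper81), rung KAP (helper56). -/

set_option autoImplicit false
set_option linter.unusedSectionVars false
open Cfsg
open scoped ComplexConjugate
open Cfsg.Agent.Lib.Helper20 Cfsg.Agent.Lib.Helper81 Cfsg.Agent.Lib.Helper81.CY3

namespace Cfsg.Agent.Lib.Helper81.RK

theorem kap_sq {a : ℂ} (h : a = 1 ∨ a = -1) : a * a = 1 := by
  rcases h with h | h <;> rw [h] <;> norm_num

theorem kap_conj {a : ℂ} (h : a = 1 ∨ a = -1) : conj a = a := by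
  rcases h with h | h <;> rw [h] <;> simp

theorem kap_core {I Γ : Type*} [DecidableEq I] [Fintype Γ] (val : I → Γ → ℂ)
    (r : Γ → Prop) [DecidablePred r] (c : ℂ)
    (X Y : Finset I) (hdisj : Disjoint X Y) (e t : ℕ) (hX : X.card = e) (hY : Y.card = t)
    (he : 1 ≤ e)
    (a : I → ℂ) (a₀ : ℂ) (ha : ∀ i ∈ X, a i = 1 ∨ a i = -1) (ha₀ : a₀ = 1 ∨ a₀ = -1)
    (m : I → I → ℂ)
    (hm : ∀ i j, m i j = c * ∑ g, (if r g then val i g else 0) * conj (val j g))
    (horth : ∀ i j, c * ∑ g, val i g * conj (val j g) = if i = j then 1 else 0)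
    (rel : ∀ ψ ∈ Y, ∀ g, r g → a₀ * val ψ g + ∑ i ∈ X, a i * val i g = 0)
    (sing : ∀ i ∈ X, ∀ j ∈ X, ∀ g, ¬ r g → a i * val i g = a j * val j g)
    (trace : (e : ℂ) = ∑ i ∈ X ∪ Y, m i i) :
    ∀ i ∈ X, ∀ j ∈ X, ((e * t + 1 : ℕ) : ℂ) * m i j
      = a i * a j * ((if i = j then ((e * t + 1 : ℕ) : ℂ) else 0) - t) := by
  have hne : X.Nonempty := by
    rw [← Finset.card_pos]; omega
  obtain ⟨i₁, hi₁⟩ := hne
  obtain ⟨κ, hκ⟩ : ∃ κ : ℂ,
      κ = c * ∑ g, (if r g then 0 else val i₁ g * conj (val i₁ g)) := ⟨_, rfl⟩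
  have hval : ∀ i ∈ X, ∀ g, ¬ r g → val i g = a i * a i₁ * val i₁ g := by
    intro i hi g hg
    have h := sing i hi i₁ hi₁ g hg
    calc val i g = (a i * a i) * val i g := by rw [kap_sq (ha i hi), one_mul]
      _ = a i * (a i * val i g) := by ring
      _ = a i * (a i₁ * val i₁ g) := by rw [h]
      _ = _ := by ring
  have h1 : ∀ i ∈ X, ∀ j ∈ X, m i j = (if i = j then 1 else 0) - a i * a j * κ := by
    intro i hi j hj
    rw [← horth i j, hm, hκ]
    have : ∑ g, (if r g then val i g else 0) * conj (val j g)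
        = ∑ g, val i g * conj (val j g)
          - a i * a j * ∑ g, (if r g then 0 else val i₁ g * conj (val i₁ g)) := by
      rw [Finset.mul_sum, ← Finset.sum_sub_distrib]
      apply Finset.sum_congr rfl
      intro g _
      by_cases hg : r g
      · simp [hg]
      · rw [if_neg hg, if_neg hg, hval i hi g hg, hval j hj g hg, map_mul, map_mul,
          kap_conj (ha j hj), kap_conj (ha i₁ hi₁)]
        have := kap_sq (ha i₁ hi₁)
        linear_combination (-(a i * a j * val i₁ g * conj (val i₁ g))) * this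
    rw [this]
    ring
  have h2 : ∀ ψ ∈ Y, m ψ ψ = (e : ℂ) - (e : ℂ) ^ 2 * κ := by
    intro ψ hψ
    have hstep : ∀ g, (if r g then val ψ g else 0) * conj (val ψ g)
        = ∑ i ∈ X, ∑ j ∈ X, a i * a j * ((if r g then val i g else 0) * conj (val j g)) := by
      intro g
      by_cases hg : r g
      · simp only [if_pos hg]
        have h := rel ψ hψ g hg
        have hv : val ψ g = - a₀ * ∑ i ∈ X, a i * val i g := by
          have h3 := kap_sq ha₀
          linear_combination a₀ * h - (val ψ g) * h3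
        have hc : conj (∑ i ∈ X, a i * val i g) = ∑ j ∈ X, a j * conj (val j g) := by
          rw [map_sum]
          apply Finset.sum_congr rfl
          intro j hj
          rw [map_mul, kap_conj (ha j hj)]
        rw [hv, map_mul, map_neg, kap_conj ha₀, hc]
        have h3 := kap_sq ha₀
        calc (-a₀ * ∑ i ∈ X, a i * val i g) * (-a₀ * ∑ j ∈ X, a j * conj (val j g))
            = (a₀ * a₀) * ((∑ i ∈ X, a i * val i g) * ∑ j ∈ X, a j * conj (val j g)) := by ring
          _ = (∑ i ∈ X, a i * val i g) * ∑ j ∈ X, a j * conj (val j g) := by rw [h3, one_mul]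
          _ = _ := by
            rw [Finset.sum_mul_sum]
            apply Finset.sum_congr rfl
            intro i _
            apply Finset.sum_congr rfl
            intro j _
            ring
      · simp [hg]
    have h4 : m ψ ψ = ∑ i ∈ X, ∑ j ∈ X, a i * a j * m i j := by
      rw [hm]
      simp only [hstep]
      rw [Finset.sum_comm, Finset.mul_sum]
      apply Finset.sum_congr rfl
      intro i _
      rw [Finset.sum_comm, Finset.mul_sum]
      apply Finset.sum_congr rfl
      intro j _
      rw [hm, ← Finset.mul_sum]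
      ring
    rw [h4]
    have h5 : ∀ i ∈ X, ∑ j ∈ X, a i * a j * m i j = 1 - (e : ℂ) * κ := by
      intro i hi
      have : ∀ j ∈ X, a i * a j * m i j = (if i = j then 1 else 0) - κ := by
        intro j hj
        rw [h1 i hi j hj]
        have hi2 := kap_sq (ha i hi)
        have hj2 := kap_sq (ha j hj)
        by_cases hij : i = j
        · subst hij
          simp only [if_true]
          linear_combination (1 - κ - a i * a i * κ) * hi2
        · simp only [if_neg hij]
          linear_combination (- κ * a j * a j) * hi2 - κ * hj2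
      rw [Finset.sum_congr rfl this, Finset.sum_sub_distrib, Finset.sum_ite_eq, if_pos hi,
        Finset.sum_const, hX, nsmul_eq_mul]
    rw [Finset.sum_congr rfl h5, Finset.sum_const, hX, nsmul_eq_mul]
    ring
  have h6 : κ * ((e : ℂ) * t + 1) = t := by
    rw [Finset.sum_union hdisj, Finset.sum_congr rfl h2, Finset.sum_const, hY, nsmul_eq_mul] at trace
    have h7 : ∀ i ∈ X, m i i = 1 - κ := by
      intro i hi
      rw [h1 i hi i hi, if_pos rfl, kap_sq (ha i hi), one_mul]
    rw [Finset.sum_congr rfl h7, Finset.sum_const, hX, nsmul_eq_mul] at trace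
    have he0 : (e : ℂ) ≠ 0 := by
      have : e ≠ 0 := by omega
      exact_mod_cast this
    apply mul_left_cancel₀ he0
    linear_combination trace
  intro i hi j hj
  rw [h1 i hi j hj]
  push_cast
  by_cases hij : i = j
  · subst hij
    simp only [if_true]
    have hi2 := kap_sq (ha i hi)
    linear_combination (-(a i * a i)) * h6 + (-((e : ℂ) * t + 1)) * hi2 
  · simp only [if_neg hij]
    linear_combination (-(a i * a j)) * h6

variable {G : Type*} [Group G] [Fintype G] {p : ℕ} [Fact p.Prime] {M : Ideal AlgInt}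

open Classical in
theorem kap (hM : IsPModular p M) {B X Y : Set (IrrCharacter G)} (hB : IsPBlock M B) {e t : ℕ}
    {δ : IrrCharacter G → ℤ} {δ₀ : ℤ} (hs : Shape p B X Y e t δ δ₀) (he : 1 ≤ e)
    (hl : blockRank p B = e) (hq : p ^ blockDefect p B = e * t + 1) :
    ∀ χ ∈ X, ∀ χ' ∈ X, kC p B χ χ'
      = δ χ * δ χ' * ((if χ = χ' then ((e * t + 1 : ℕ) : ℤ) else 0) - (t : ℤ)) := by
  haveI : Fintype (IrrCharacter G) := Fintype.ofFinite _
  have hcast : ∀ z : ℤ, (z = 1 ∨ z = -1) → ((z : ℂ) = 1 ∨ (z : ℂ) = -1) := by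
    rintro z (h | h) <;> rw [h] <;> simp
  have key := kap_core (I := IrrCharacter G) (Γ := G) (fun χ g => (χ : G → ℂ) g)
    (fun g => IsPRegular p g) ((Nat.card G : ℂ)⁻¹) X.toFinset Y.toFinset
    (Set.disjoint_toFinset.2 hs.disj) e t
    (by rw [Set.toFinset_card, ← Nat.card_eq_fintype_card]; exact hs.cardX)
    (by rw [Set.toFinset_card, ← Nat.card_eq_fintype_card]; exact hs.cardY) he
    (fun χ => (δ χ : ℂ)) (δ₀ : ℂ)
    (fun χ hχ => hcast _ (hs.sign χ (by simpa using hχ))) (hcast _ hs.sign0)
    (fun χ ψ => mC p (χ : G → ℂ) (ψ : G → ℂ))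
    (by
      intro χ ψ
      simp only [mC, classInner, pRegularPart_eq])
    (by
      intro χ ψ
      have h := classInner_irr χ.2 ψ.2
      rw [classInner] at h
      rw [h]
      by_cases hc : χ = ψ
      · rw [if_pos hc, if_pos (by rw [hc])]
      · rw [if_neg hc, if_neg (fun h' => hc (Subtype.ext h'))])
    (by
      intro ψ hψ g hg
      have h := hs.rel ψ (by simpa using hψ) g hg
      rw [finsum_mem_eq_toFinset_sum] at h
      exact h)
    (by
      intro χ hχ χ' hχ' g hg
      exact hs.sing χ (by simpa using hχ) χ' (by simpa using hχ') g (not_not.1 hg))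
    (by
      rw [← hl, blockRank_eq_sum_mC hM B hB, ← Finset.sum_filter]
      apply Finset.sum_congr _ (fun _ _ => rfl)
      ext χ
      simp [hs.union])
  intro χ hχ χ' hχ'
  have h := key χ (by simpa using hχ) χ' (by simpa using hχ')
  have hχ'B : χ' ∈ B := by rw [hs.union]; exact Or.inl hχ'
  have h2 := kC_spec hM χ hχ'B
  apply Int.cast_injective (α := ℂ)
  have h3 : (p : ℂ) ^ blockDefect p B = ((e * t + 1 : ℕ) : ℂ) := by exact_mod_cast hq
  rw [h2, h3, h]
  by_cases hc : χ = χ'
  · simp only [if_pos hc]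
    push_cast
    ring
  · simp only [if_neg hc]
    push_cast
    ring

end Cfsg.Agent.Lib.Helper81.RK
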