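import Mathlib

/-! Ladder RK, rung PINQ. -/

set_option autoImplicit false

namespace Cfsg.Agent.Lib.Helper81.RK

theorem pinq {I : Type*} (s : Finset I) (e t : ℕ) (hcard : s.card = e) (ht : 1 ≤ t) (v : I → ℤ) :
    ((e * t + 1 : ℕ) : ℤ) * ∑ i ∈ s, v i ^ 2 - (t : ℤ) * (∑ i ∈ s, v i) ^ 2 = 0 ∨
    (e : ℤ) ≤ ((e * t + 1 : ℕ) : ℤ) * ∑ i ∈ s, v i ^ 2 - (t : ℤ) * (∑ i ∈ s, v i) ^ 2 := by
  classical
  obtain ⟨S, hS⟩ : ∃ S, S = s.filter (fun i => v i ≠ 0) := ⟨_, rfl⟩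
  obtain ⟨k, hk⟩ : ∃ k, k = S.card := ⟨_, rfl⟩
  have hsum1 : ∑ i ∈ s, v i = ∑ i ∈ S, v i := by
    rw [hS, Finset.sum_filter]
    refine Finset.sum_congr rfl fun i _ => ?_
    by_cases h : v i = 0 <;> simp [h]
  have hsum2 : ∑ i ∈ s, v i ^ 2 = ∑ i ∈ S, v i ^ 2 := by
    rw [hS, Finset.sum_filter]
    refine Finset.sum_congr rfl fun i _ => ?_
    by_cases h : v i = 0 <;> simp [h]
  have hke : k ≤ e := by
    rw [hk, hS, ← hcard]
    exact Finset.card_filter_le _ _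
  have hcs : (∑ i ∈ S, v i) ^ 2 ≤ (k : ℤ) * ∑ i ∈ S, v i ^ 2 := by
    rw [hk]
    exact sq_sum_le_card_mul_sum_sq
  have hge : (k : ℤ) ≤ ∑ i ∈ S, v i ^ 2 := by
    have h1 : ∑ i ∈ S, (1 : ℤ) ≤ ∑ i ∈ S, v i ^ 2 := by
      refine Finset.sum_le_sum fun i hi => ?_
      have hne : v i ≠ 0 := by
        rw [hS] at hi
        exact (Finset.mem_filter.1 hi).2
      have : 0 < v i ^ 2 := by positivity
      omega
    simpa [hk] using h1
  rw [hsum1, hsum2]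
  obtain ⟨A, hA⟩ : ∃ A, A = ∑ i ∈ S, v i ^ 2 := ⟨_, rfl⟩
  obtain ⟨B, hB⟩ : ∃ B, B = (∑ i ∈ S, v i) ^ 2 := ⟨_, rfl⟩
  rw [← hA, ← hB] at hcs
  rw [← hA] at hge
  rw [← hA, ← hB]
  push_cast
  have ht' : (1 : ℤ) ≤ t := by exact_mod_cast ht
  have hke' : (k : ℤ) ≤ e := by exact_mod_cast hke
  have hk0 : (0 : ℤ) ≤ k := by positivity
  rcases Nat.eq_zero_or_pos k with h0 | hpos
  · left
    have hSe : S = ∅ := by
      rw [← Finset.card_eq_zero, ← hk, h0]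
    have hA0 : A = 0 := by rw [hA, hSe]; simp
    have hB0 : B = 0 := by rw [hB, hSe]; simp
    rw [hA0, hB0]; ring
  · right
    have hpos' : (1 : ℤ) ≤ k := by exact_mod_cast hpos
    -- Q = A + t (e A - B) ≥ A + t (e - k) A
    have h1 : (t : ℤ) * B ≤ t * (k * A) := by nlinarith
    have h2 : ((e : ℤ) * t + 1) * A - t * B ≥ A + t * ((e - k) * A) := by nlinarith
    have h3 : (t : ℤ) * ((e - k) * A) ≥ (e - k) * k := by
      have h4 : ((e : ℤ) - k) * A ≥ (e - k) * k := by nlinarith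
      have h5 : ((e : ℤ) - k) * A ≥ 0 := by nlinarith
      nlinarith
    have h6 : (k : ℤ) + (e - k) * k ≥ e := by nlinarith
    linarith

end Cfsg.Agent.Lib.Helper81.RK
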