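import Cfsg.Agent.Lib.Helper81.RK.REDX
import Cfsg.Agent.Lib.Helper81.RK.KAP
import Cfsg.Agent.Lib.Helper81.RK.PINQ

set_option autoImplicit false
set_option linter.unusedSectionVars false
open Cfsg
open scoped ComplexConjugate
open Cfsg.Agent.Lib.Helper20 Cfsg.Agent.Lib.Helper81 Cfsg.Agent.Lib.Helper81.CY3

namespace Cfsg.Agent.Lib.Helper81.RK

theorem cmin_pure {I : Type*} [Fintype I] [DecidableEq I] (s : Finset I) (K : I → I → ℤ)
    (δ : I → ℤ) (c t : ℤ)
    (hK : ∀ i ∈ s, ∀ j ∈ s, K i j = δ i * δ j * ((if i = j then c else 0) - t)) (f : I → ℤ)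
    (hf : ∀ i, i ∉ s → f i = 0) :
    ∑ i, ∑ j, K i j * f i * f j =
      c * ∑ i ∈ s, (δ i * f i) ^ 2 - t * (∑ i ∈ s, δ i * f i) ^ 2 := by
  have h1 : ∑ i, ∑ j, K i j * f i * f j = ∑ i ∈ s, ∑ j ∈ s, K i j * f i * f j := by
    symm
    apply Finset.sum_subset_zero_on_sdiff (Finset.subset_univ s)
    · intro i hi
      have : i ∉ s := (Finset.mem_sdiff.mp hi).2
      simp [hf i this]
    · intro i _
      apply Finset.sum_subset (Finset.subset_univ s)
      intro j _ hj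
      simp [hf j hj]
  rw [h1]
  have h2 : ∀ i ∈ s, ∑ j ∈ s, K i j * f i * f j =
      c * (δ i * f i) ^ 2 - t * ((δ i * f i) * ∑ j ∈ s, δ j * f j) := by
    intro i hi
    have h3 : ∀ j ∈ s, K i j * f i * f j =
        (if i = j then c * (δ i * f i) * (δ j * f j) else 0) - t * ((δ i * f i) * (δ j * f j)) := by
      intro j hj
      rw [hK i hi j hj]
      split_ifs <;> ring
    rw [Finset.sum_congr rfl h3, Finset.sum_sub_distrib, Finset.sum_ite_eq, if_pos hi,
      ← Finset.mul_sum, ← Finset.mul_sum]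
    ring
  rw [Finset.sum_congr rfl h2, Finset.sum_sub_distrib, ← Finset.mul_sum, ← Finset.mul_sum,
    ← Finset.sum_mul]
  ring

variable {G : Type*} [Group G] [Fintype G] {p : ℕ} [Fact p.Prime] {M : Ideal AlgInt}

/-- CMIN. -/
theorem cmin (hM : IsPModular p M) {B X Y : Set (IrrCharacter G)} (hB : IsPBlock M B) {e t : ℕ}
    {δ : IrrCharacter G → ℤ} {δ₀ : ℤ} (hs : Shape p B X Y e t δ δ₀) (he : 1 ≤ e) (ht : 1 ≤ t)
    (hl : blockRank p B = e) (hq : p ^ blockDefect p B = e * t + 1) [Fintype (IrrCharacter G)]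
    (f : IrrCharacter G → ℤ) :
    qK (KS p B) f = 0 ∨ (blockRank p B : ℤ) ≤ qK (KS p B) f := by
  classical
  obtain ⟨f', hf', hq'⟩ := redx hM hs f
  rw [hq', hl]
  set s : Finset (IrrCharacter G) := Finset.univ.filter (· ∈ X) with hsdef
  have hcard : s.card = e := by
    rw [← hs.cardX, Nat.card_eq_fintype_card, Fintype.card_subtype]
  have hK : ∀ i ∈ s, ∀ j ∈ s, KS p B i j =
      δ i * δ j * ((if i = j then ((e * t + 1 : ℕ) : ℤ) else 0) - (t : ℤ)) := by
    intro i hi j hj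
    have hiX : i ∈ X := (Finset.mem_filter.mp hi).2
    have hjX : j ∈ X := (Finset.mem_filter.mp hj).2
    have hiB : i ∈ B := by rw [hs.union]; exact Or.inl hiX
    have hjB : j ∈ B := by rw [hs.union]; exact Or.inl hjX
    unfold KS
    rw [if_pos ⟨hiB, hjB⟩]
    exact kap hM hB hs he hl hq i hiX j hjX
  have hmain := cmin_pure s (KS p B) δ ((e * t + 1 : ℕ) : ℤ) (t : ℤ) hK f'
    (fun i hi => hf' i (fun h => hi (Finset.mem_filter.mpr ⟨Finset.mem_univ _, h⟩)))
  rw [show qK (KS p B) f' = ∑ i, ∑ j, KS p B i j * f' i * f' j from rfl, hmain]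
  exact pinq s e t hcard ht (fun i => δ i * f' i)

end Cfsg.Agent.Lib.Helper81.RK
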