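import Cfsg.Agent.Lib.Helper81.CY3.Main
import Cfsg.Agent.Lib.Helper82.CY2U.Main
import Cfsg.Agent.Lib.Helper19.CY2.CFG
import Cfsg.Agent.Lib.Helper19.CY2.CNT

set_option autoImplicit false
set_option linter.unusedSectionVars false
open Cfsg
open scoped ComplexConjugate
open Cfsg.Agent.Lib.Helper20 Cfsg.Agent.Lib.Helper81 Cfsg.Agent.Lib.Helper81.CY3
open Cfsg.Agent.Lib.Helper80 Cfsg.Agent.Lib.Helper80.GA Cfsg.Agent.Lib.Helper5

namespace Cfsg.Agent.Lib.Helper81.RK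

variable {G : Type*} [Group G] [Fintype G] {p : ℕ} [Fact p.Prime] {M : Ideal AlgInt}

/-- the shape of a block with a nontrivial cyclic defect group -/
theorem exists_shape (hM : IsPModular p M) {B : Set (IrrCharacter G)} (hB : IsPBlock M B)
    {D : Subgroup G} (hPD : IsDefectGroup p M B D) (hcyc : IsCyclic D) (hD1 : D ≠ ⊥) :
    ∃ (e t : ℕ) (X Y : Set (IrrCharacter G)) (δ : IrrCharacter G → ℤ) (δ₀ : ℤ), 1 ≤ e ∧ 1 ≤ t ∧
      p ^ blockDefect p B = e * t + 1 ∧ blockRank p B = e ∧ Shape p B X Y e t δ δ₀ := by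
  classical
  haveI : Finite (Cfsg.IrrCharacter G) := finite_irrCharacter
  haveI : Fintype (Cfsg.IrrCharacter G) := Fintype.ofFinite _
  have hp : p.Prime := Fact.out
  have hdef := isDef_of_isDefectGroup hM hB hPD
  obtain ⟨eD, hmax⟩ := (isBlk_blkR hM hB).exists_isMaxBP_of_isDef hdef
  obtain ⟨n0, t, x, hn0, hte, hcard, hsupp, hvan, hgram, -, hle⟩ :=
    Cfsg.Agent.Lib.Helper82.CY2U.ub_core hM hB hPD hcyc hD1 hmax
  obtain ⟨C⟩ := Cfsg.Agent.Lib.Helper19.CY2.exists_cfg hM hB hPD hcyc hD1 hmax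
  have hlb := Cfsg.Agent.Lib.Helper19.CY2.le_blockRank_of_cfg hM hB C
  have hep := relIndex_dvd hM hB hPD hcyc hD1 hmax
  obtain ⟨e, he⟩ : ∃ e, e = (Cn D).relIndex (stabP D eD) := ⟨_, rfl⟩
  rw [← he] at hn0 hte hlb hep
  have hl : blockRank p B = e := by omega
  have hn : n0 = e := by omega
  subst hn
  have hcD := Cfsg.Agent.Lib.Helper21.card_defectGroup hM B hB D hPD
  have hD2 : Nat.card D ≠ 1 := fun h => hD1 ((Subgroup.card_eq_one).1 h)
  have he1 : 1 ≤ n0 := by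
    rcases Nat.eq_zero_or_pos n0 with h0 | h0
    · rw [h0, zero_dvd_iff] at hep
      have := hp.two_le
      omega
    · exact h0
  have ht1 : 1 ≤ t := by
    rcases Nat.eq_zero_or_pos t with h0 | h0
    · rw [h0, mul_zero] at hte; omega
    · exact h0
  have hd0 : blockDefect p B ≠ 0 := by
    intro h0
    rw [h0, pow_zero] at hcD
    exact hD2 hcD
  obtain ⟨X, Y, δ, δ₀, hs⟩ := sh hM hB hd0 ht1 (core_of hcard hsupp hvan hgram) hl
  exact ⟨n0, t, X, Y, δ, δ₀, he1, ht1, by rw [← hcD, hte], hl, hs⟩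

end Cfsg.Agent.Lib.Helper81.RK
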