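import Cfsg.Agent.Lib.Helper81.CY3.Main
import Cfsg.Agent.Lib.Helper81.DefectBound
import Cfsg.Agent.Lib.Helper21.QuotDefect
import Cfsg.Agent.Lib.Helper5.MajorNV

set_option autoImplicit false
set_option linter.unusedSectionVars false
open Cfsg
open scoped ComplexConjugate
open Cfsg.Agent.Lib.Helper20 Cfsg.Agent.Lib.Helper81 Cfsg.Agent.Lib.Helper81.CY3
open Cfsg.Agent.Lib.Helper21 (inflIrr inflIrr_coe)

namespace Cfsg.Agent.Lib.Helper81.RK

variable {G : Type*} [Group G] [Fintype G] {p : ℕ} [Fact p.Prime] {M : Ideal AlgInt}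

theorem defq (hM : IsPModular p M) {b : Set (IrrCharacter G)} (hb : IsPBlock M b) {z : G}
    (hz : z ∈ Subgroup.center G) {n : ℕ} (hn : orderOf z = p ^ n) [(Subgroup.zpowers z).Normal]
    {D' : Subgroup G} (hD' : IsDefectGroup p M b D') (hzD : z ∈ D') :
    IsDefectGroup p M (quotBlock (Subgroup.zpowers z) b)
        (D'.map (QuotientGroup.mk' (Subgroup.zpowers z))) ∧
      blockDefect p b = blockDefect p (quotBlock (Subgroup.zpowers z) b) + n := by
  classical
  have : Fintype (G ⧸ Subgroup.zpowers z) := Fintype.ofFinite _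
  have hcardN : Nat.card (Subgroup.zpowers z) = p ^ n := by rw [Nat.card_zpowers, hn]
  have hN : IsPGroup p (Subgroup.zpowers z) := IsPGroup.of_card hcardN
  have hc : Subgroup.zpowers z ≤ Subgroup.center G := Subgroup.zpowers_le.2 hz
  have hqb := isPBlock_quotBlock hM hb (Subgroup.zpowers z) hN hc
  obtain ⟨Bbar, hBbar, hsub, hdef⟩ :=
    Cfsg.Agent.Lib.Helper21.exists_quotient_block_defect hM (Subgroup.zpowers z) hN b hb
  obtain ⟨χ, hχ⟩ := isPBlock_nonempty hM hBbar
  have heq : Bbar = quotBlock (Subgroup.zpowers z) b :=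
    isPBlock_eq_of_mem hM hBbar hqb hχ (hsub χ hχ)
  have h1 : IsDefectGroup p M (quotBlock (Subgroup.zpowers z) b)
      (D'.map (QuotientGroup.mk' (Subgroup.zpowers z))) := by
    rw [← heq]
    exact (hdef _).2 ⟨D', hD', rfl⟩
  refine ⟨h1, ?_⟩
  have hc1 := Cfsg.Agent.Lib.Helper21.card_defectGroup hM b hb D' hD'
  have hc2 := Cfsg.Agent.Lib.Helper21.card_defectGroup hM _ hqb _ h1
  have hND : Subgroup.zpowers z ≤ D' := Subgroup.zpowers_le.2 hzD
  have hc3 : Nat.card (D'.map (QuotientGroup.mk' (Subgroup.zpowers z))) * Nat.card (Subgroup.zpowers z)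
      = Nat.card D' := by
    have h2 := Subgroup.relIndex_ker (K := D') (QuotientGroup.mk' (Subgroup.zpowers z))
    rw [QuotientGroup.ker_mk'] at h2
    have h3 := Subgroup.relIndex_mul_relIndex (⊥ : Subgroup G) (Subgroup.zpowers z) D' bot_le hND
    rw [Subgroup.relIndex_bot_left, Subgroup.relIndex_bot_left] at h3
    rw [← h2, mul_comm, h3]
  rw [hc1, hc2, hcardN, ← pow_add] at hc3
  exact (Nat.pow_right_injective (Fact.out : p.Prime).two_le hc3).symm

end Cfsg.Agent.Lib.Helper81.RK
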