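import Mathlib

set_option autoImplicit false

namespace Cfsg.Agent.Lib.Helper81.RK

theorem gens2 {G : Type*} [Group G] [Finite G] (D : Subgroup G) (h : Group.rank D = 2) :
    ∃ u v : G, D = Subgroup.closure {u, v} := by
  classical
  obtain ⟨S, hS, hcl⟩ := Group.rank_spec D
  rw [h, Finset.card_eq_two] at hS
  obtain ⟨a, b, -, rfl⟩ := hS
  refine ⟨a, b, ?_⟩
  have h1 := congrArg (Subgroup.map D.subtype) hcl
  rw [MonoidHom.map_closure, ← MonoidHom.range_eq_map, Subgroup.range_subtype] at h1
  refine h1.symm.trans ?_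
  congr 1
  simp [Set.image_pair]

end Cfsg.Agent.Lib.Helper81.RK
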