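import Mathlib

set_option autoImplicit false

namespace Cfsg.Agent.Lib.Helper81.RK

theorem gens3_card {C : Type*} [CommGroup C] [Finite C] (a b c : C)
    (h : Subgroup.closure {a, b, c} = ⊤) :
    Nat.card C ≤ orderOf a * orderOf b * orderOf c := by
  have hsup : Subgroup.zpowers a ⊔ (Subgroup.zpowers b ⊔ Subgroup.zpowers c) = ⊤ := by
    rw [← h, Set.insert_eq, Set.insert_eq, Subgroup.closure_union, Subgroup.closure_union,
      Subgroup.zpowers_eq_closure, Subgroup.zpowers_eq_closure, Subgroup.zpowers_eq_closure]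
  let φ : Subgroup.zpowers a × Subgroup.zpowers b × Subgroup.zpowers c → C :=
    fun t => (t.1 : C) * ((t.2.1 : C) * (t.2.2 : C))
  have hφ : Function.Surjective φ := by
    intro x
    have hx : x ∈ Subgroup.zpowers a ⊔ (Subgroup.zpowers b ⊔ Subgroup.zpowers c) := by
      rw [hsup]; trivial
    obtain ⟨y, hy, z, hz, rfl⟩ := Subgroup.mem_sup.1 hx
    obtain ⟨z1, hz1, z2, hz2, rfl⟩ := Subgroup.mem_sup.1 hz
    exact ⟨(⟨y, hy⟩, ⟨z1, hz1⟩, ⟨z2, hz2⟩), rfl⟩
  have h1 := Nat.card_le_card_of_surjective φ hφ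
  rw [Nat.card_prod, Nat.card_prod, Nat.card_zpowers, Nat.card_zpowers, Nat.card_zpowers] at h1
  rw [mul_assoc]
  exact h1

theorem gens3_aux {G : Type*} [Group G] (D : Subgroup G) (a b c : G)
    (hD : D = Subgroup.closure {a, b, c})
    (hcard : Nat.card D ≤ orderOf a * orderOf b * orderOf c) :
    ∃ u v w : G, D = Subgroup.closure {u, v, w} ∧ Nat.card D ≤ orderOf u ^ 3 := by
  rcases le_total (orderOf a) (orderOf b) with hab | hab
  · rcases le_total (orderOf b) (orderOf c) with hbc | hbc
    · refine ⟨c, a, b, ?_, ?_⟩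
      · rw [hD]
        congr 1
        rw [Set.insert_comm c a, Set.pair_comm c b]
      · calc Nat.card D ≤ orderOf a * orderOf b * orderOf c := hcard
          _ ≤ orderOf c * orderOf c * orderOf c :=
            Nat.mul_le_mul (Nat.mul_le_mul (hab.trans hbc) hbc) le_rfl
          _ = orderOf c ^ 3 := by ring
    · refine ⟨b, a, c, ?_, ?_⟩
      · rw [hD, Set.insert_comm]
      · calc Nat.card D ≤ orderOf a * orderOf b * orderOf c := hcard
          _ ≤ orderOf b * orderOf b * orderOf b :=
            Nat.mul_le_mul (Nat.mul_le_mul hab le_rfl) hbc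
          _ = orderOf b ^ 3 := by ring
  · rcases le_total (orderOf a) (orderOf c) with hac | hac
    · refine ⟨c, a, b, ?_, ?_⟩
      · rw [hD]
        congr 1
        rw [Set.insert_comm c a, Set.pair_comm c b]
      · calc Nat.card D ≤ orderOf a * orderOf b * orderOf c := hcard
          _ ≤ orderOf c * orderOf c * orderOf c :=
            Nat.mul_le_mul (Nat.mul_le_mul hac (hab.trans hac)) le_rfl
          _ = orderOf c ^ 3 := by ring
    · refine ⟨a, b, c, hD, ?_⟩
      calc Nat.card D ≤ orderOf a * orderOf b * orderOf c := hcard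
          _ ≤ orderOf a * orderOf a * orderOf a :=
            Nat.mul_le_mul (Nat.mul_le_mul le_rfl hab) hac
          _ = orderOf a ^ 3 := by ring

theorem gens3 {G : Type*} [Group G] [Finite G] (D : Subgroup G)
    (hab : ∀ x ∈ D, ∀ y ∈ D, x * y = y * x) (h : Group.rank D = 3) :
    ∃ u v w : G, D = Subgroup.closure {u, v, w} ∧ Nat.card D ≤ orderOf u ^ 3 := by
  classical
  obtain ⟨S, hS, hcl⟩ := Group.rank_spec D
  rw [h, Finset.card_eq_three] at hS
  obtain ⟨a, b, c, -, -, -, rfl⟩ := hS
  have hcl' : Subgroup.closure ({a, b, c} : Set D) = ⊤ := by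
    rw [← hcl]
    congr 1
    simp
  apply gens3_aux D a b c
  · have h1 := congrArg (Subgroup.map D.subtype) hcl'
    rw [MonoidHom.map_closure, ← MonoidHom.range_eq_map, Subgroup.range_subtype] at h1
    refine h1.symm.trans ?_
    congr 1
    simp [Set.image_insert_eq]
  · let _ : CommGroup D :=
      { (inferInstance : Group D) with
        mul_comm := fun x y => Subtype.ext (hab x x.2 y y.2) }
    have h2 := gens3_card a b c hcl'
    rwa [Subgroup.orderOf_mk, Subgroup.orderOf_mk, Subgroup.orderOf_mk] at h2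

end Cfsg.Agent.Lib.Helper81.RK
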