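import Mathlib

/-! Ladder RK (helper81), rung IMG (helper56). -/

set_option autoImplicit false

namespace Cfsg.Agent.Lib.Helper81.RK

theorem img_aux {G : Type*} [Group G] {D H : Subgroup G} (hDH : D ≤ H) (s : Set H)
    (hD : D = Subgroup.closure ((fun x : H => (x : G)) '' s)) :
    D.subgroupOf H = Subgroup.closure s := by
  apply Subgroup.map_injective H.subtype_injective
  rw [MonoidHom.map_closure, Subgroup.subgroupOf_map_subtype, inf_of_le_left hDH, hD]
  rfl

theorem img2 {G : Type*} [Group G] {D H : Subgroup G} (hDH : D ≤ H) {u v : G}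
    (hD : D = Subgroup.closure {u, v}) (z : H) (hz : (z : G) = u) [(Subgroup.zpowers z).Normal] :
    ∃ v' : H ⧸ Subgroup.zpowers z,
      (D.subgroupOf H).map (QuotientGroup.mk' (Subgroup.zpowers z)) = Subgroup.zpowers v' := by
  have hv : v ∈ H := hDH (by rw [hD]; exact Subgroup.subset_closure (by simp))
  refine ⟨QuotientGroup.mk' _ ⟨v, hv⟩, ?_⟩
  have h1 : D.subgroupOf H = Subgroup.closure {z, ⟨v, hv⟩} := by
    apply img_aux hDH
    rw [hD, Set.image_pair, hz]
  have hz1 : QuotientGroup.mk' (Subgroup.zpowers z) z = 1 := by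
    rw [QuotientGroup.mk'_apply, QuotientGroup.eq_one_iff]
    exact Subgroup.mem_zpowers z
  rw [h1, MonoidHom.map_closure, Set.image_pair, hz1, Subgroup.closure_insert_one]
  exact (Subgroup.zpowers_eq_closure _).symm

theorem img3 {G : Type*} [Group G] {D H : Subgroup G} (hDH : D ≤ H) {u v w : G}
    (hD : D = Subgroup.closure {u, v, w}) (z : H) (hz : (z : G) = u)
    [(Subgroup.zpowers z).Normal] :
    ∃ v' w' : H ⧸ Subgroup.zpowers z,
      (D.subgroupOf H).map (QuotientGroup.mk' (Subgroup.zpowers z)) = Subgroup.closure {v', w'} := by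
  have hv : v ∈ H := hDH (by rw [hD]; exact Subgroup.subset_closure (by simp))
  have hw : w ∈ H := hDH (by rw [hD]; exact Subgroup.subset_closure (by simp))
  refine ⟨QuotientGroup.mk' _ ⟨v, hv⟩, QuotientGroup.mk' _ ⟨w, hw⟩, ?_⟩
  have h1 : D.subgroupOf H = Subgroup.closure {z, ⟨v, hv⟩, ⟨w, hw⟩} := by
    apply img_aux hDH
    rw [hD, Set.image_insert_eq, Set.image_pair, hz]
  have hz1 : QuotientGroup.mk' (Subgroup.zpowers z) z = 1 := by
    rw [QuotientGroup.mk'_apply, QuotientGroup.eq_one_iff]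
    exact Subgroup.mem_zpowers z
  rw [h1, MonoidHom.map_closure, Set.image_insert_eq, Set.image_pair, hz1,
    Subgroup.closure_insert_one]

end Cfsg.Agent.Lib.Helper81.RK
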