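import Cfsg.Agent.Lib.Helper5.MajorNV

/-! LADDER RK (owner helper81), rung MAJ. -/

set_option autoImplicit false
set_option linter.unusedSectionVars false
open Cfsg
open scoped ComplexConjugate
open Cfsg.Agent.Lib.Helper20 Cfsg.Agent.Lib.Helper81 Cfsg.Agent.Lib.Helper80
open Cfsg.Agent.Lib.Helper80.GA Cfsg.Agent.Lib.Helper5

namespace Cfsg.Agent.Lib.Helper81.RK

variable {G : Type*} [Group G] [Fintype G] {p : ℕ} [Fact p.Prime] {M : Ideal AlgInt}

/-- MAJ: copy of `Helper5.exists_major_subsection`, exporting the defect group of `β`. -/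
theorem maj (hM : IsPModular p M) {B : Set (IrrCharacter G)} (hB : IsPBlock M B) {P : Subgroup G}
    (hPD : IsDefectGroup p M B P) (hab : ∀ x ∈ P, ∀ y ∈ P, x * y = y * x) {x : G} (hx : x ∈ P) :
    ∃ (β : Set (IrrCharacter (Subgroup.centralizer ({x} : Set G)))) (n : ℕ),
      SubsecData p M (Subgroup.centralizer ({x} : Set G)) x n β B ∧
        blockDefect p β = blockDefect p B ∧
        IsDefectGroup p M β (P.subgroupOf (Subgroup.centralizer ({x} : Set G))) := by
  have hdef : IsDef p ⊤ (blkR hM B) P := isDef_of_isDefectGroup hM hB hPD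
  obtain ⟨e, hmax⟩ := (isBlk_blkR hM hB).exists_isMaxBP_of_isDef hdef
  have he : IsBP p P e := hmax.1.1
  obtain ⟨f, hf, hle⟩ := he.exists_subpair' (Q := Subgroup.zpowers x)
    (by rw [Subgroup.zpowers_le]; exact hx)
  have hbp : IsBPOf p (blkR hM B) (Subgroup.zpowers x) f := (hle.isBPOf_iff).1 hmax.1
  have hxp : ∃ k : ℕ, orderOf x = p ^ k := by
    obtain ⟨k, hk⟩ := he.1 ⟨x, hx⟩
    have h1 : x ^ (p ^ k) = 1 := by simpa using congrArg Subtype.val hk
    obtain ⟨m, _, hm⟩ := (Nat.dvd_prime_pow Fact.out).1 (orderOf_dvd_of_pow_eq_one h1)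
    exact ⟨m, hm⟩
  have hblk : IsBlk (Subgroup.centralizer ({x} : Set G)) f := by
    rw [centralizer_singleton_eq]; exact hbp.1.2
  obtain ⟨β, hβ, hβeq⟩ := exists_block_of_isBlk_sub hM _ hblk
  have hind : IsInducedBlock M (Subgroup.centralizer ({x} : Set G)) β B := by
    rw [isInducedBlock_centralizer_iff hM hxp hβ hB, ← hβeq]
    exact hbp.2.2
  have hPle : P ≤ Subgroup.centralizer ({x} : Set G) := by
    rw [centralizer_singleton_eq]
    exact le_Cn_of_abelian hab (by rw [Subgroup.zpowers_le]; exact hx)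
  have hdefβ : IsDef p (Subgroup.centralizer ({x} : Set G))
      (bl hM (Subgroup.centralizer ({x} : Set G)) β) P := by
    rw [← hβeq, centralizer_singleton_eq]
    exact hmax.abelian_isDef_Cn hab hle
  have hβD := (isDefectGroup_sub_iff hM _ hβ hPle).2 hdefβ
  obtain ⟨⟨n, hn⟩, hd⟩ := major_setup hM hB hPD hx (fun d hd => hab d hd x hx) hind hβD
  exact ⟨β, n, hn, hd, hβD⟩

end Cfsg.Agent.Lib.Helper81.RK
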