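import Cfsg.Agent.Lib.Helper81.CY3.Defs
import Cfsg.Agent.Lib.Helper81.BrauerFeit
import Cfsg.Agent.Lib.Helper81.RankSum
import Cfsg.Agent.Lib.Helper81.RK.BIJ

/-! LADDER RK, rung MCQ: contribution numbers of inflated class functions. -/

set_option autoImplicit false
set_option linter.unusedSectionVars false
open Cfsg
open scoped ComplexConjugate
open Cfsg.Agent.Lib.Helper20 Cfsg.Agent.Lib.Helper81 Cfsg.Agent.Lib.Helper81.CY3

namespace Cfsg.Agent.Lib.Helper81.RK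

variable {G : Type*} [Group G] [Fintype G] {p : ℕ} [Fact p.Prime] {M : Ideal AlgInt}

theorem mcq_mC {H : Type*} [Group H] [Fintype H] (a b : H → ℂ) :
    mC p a b = (Nat.card H : ℂ)⁻¹ *
      ∑ g : H, (by classical exact if IsPRegular p g then a g * conj (b g) else 0) := by
  classical
  unfold mC classInner
  rw [pRegularPart_eq]
  congr 1
  apply Finset.sum_congr rfl
  intro g _
  by_cases h : IsPRegular p g <;> simp [h]

theorem mcq (N : Subgroup G) [N.Normal] [Fintype (G ⧸ N)] (hN : IsPGroup p N)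
    (hc : N ≤ Subgroup.center G) {n : ℕ} (hcard : Nat.card N = p ^ n) (ξ ξ' : G ⧸ N → ℂ) :
    (p : ℂ) ^ n * mC p (ξ ∘ QuotientGroup.mk) (ξ' ∘ QuotientGroup.mk) = mC p ξ ξ' := by
  classical
  rw [mcq_mC, mcq_mC]
  have h1 := bij N hN hc (fun q => ξ q * conj (ξ' q))
  have h2 : ∑ g : G, (if IsPRegular p g then (ξ ∘ QuotientGroup.mk) g * conj ((ξ' ∘ QuotientGroup.mk) g) else 0)
      = ∑ q : G ⧸ N, (if IsPRegular p q then ξ q * conj (ξ' q) else 0) := by
    rw [← h1]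
    apply Finset.sum_congr rfl
    intro g _
    rfl
  have h3 : (Nat.card G : ℂ) = (Nat.card (G ⧸ N) : ℂ) * (p : ℂ) ^ n := by
    rw [Subgroup.card_eq_card_quotient_mul_card_subgroup N, hcard]
    push_cast
    ring
  have hp : (p : ℂ) ^ n ≠ 0 := pow_ne_zero _ (by exact_mod_cast (Fact.out : p.Prime).ne_zero)
  have hq : (Nat.card (G ⧸ N) : ℂ) ≠ 0 := by
    exact_mod_cast Nat.card_pos.ne'
  convert_to (p : ℂ) ^ n * ((Nat.card G : ℂ)⁻¹ * ∑ g : G, (if IsPRegular p g then (ξ ∘ QuotientGroup.mk) g * conj ((ξ' ∘ QuotientGroup.mk) g) else 0)) = (Nat.card (G ⧸ N) : ℂ)⁻¹ * ∑ q : G ⧸ N, (if IsPRegular p q then ξ q * conj (ξ' q) else 0)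
  rw [h2, h3]
  field_simp

end Cfsg.Agent.Lib.Helper81.RK
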