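import Cfsg.Agent.Lib.Helper81.MajorMin

set_option autoImplicit false
set_option linter.unusedSectionVars false
open Cfsg
open scoped ComplexConjugate
open Cfsg.Agent.Lib.Helper20 Cfsg.Agent.Lib.Helper81

namespace Cfsg.Agent.Lib.Helper81.RK

variable {G : Type*} [Group G] [Fintype G] {p : ℕ} {M : Ideal AlgInt} {H : Subgroup G} [Fintype H]
  {y : G} {n : ℕ} {b : Set (IrrCharacter H)} {B : Set (IrrCharacter G)}

open Classical in
/-- a major subsection whose Cartan form has minimum at least `m` gives `m k(B) ≤ p ^ d l(b)` -/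
theorem major_min_gen (D : SubsecData p M H y n b B) (hd : blockDefect p b = blockDefect p B)
    [Fintype (IrrCharacter G)] [Fintype (IrrCharacter H)] (m : ℤ) (hm : 0 ≤ m)
    (hq : ∀ f, qK (KS p b) f = 0 ∨ m ≤ qK (KS p b) f) :
    m * ∑ χ : IrrCharacter G, (if χ ∈ B then (1 : ℤ) else 0)
      ≤ (p : ℤ) ^ blockDefect p b * (blockRank p b : ℤ) := by
  have hM := D.hM
  have hp := hM.1
  have hμ : ∀ ζ, lamS D ζ ^ (p ^ (n + 1)) = 1 :=
    fun ζ => lamS_pow D ζ (pow_dvd_pow p (Nat.le_succ n))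
  have hDj : ∀ j ∈ Jp p n, SubsecData p M H (y ^ j) n b B :=
    fun j hj => D.pow (coprime_of_mem_Jp hj)
  have h1J := one_mem_Jp hp n
  have D1 := hDj 1 h1J
  exact count_lemma (fun χ : IrrCharacter G => χ ∈ B)
    (fun χ j => (p : ℂ) ^ blockDefect p b * mS p H b (y ^ j) (χ : G → ℂ) (χ : G → ℂ)) hp n
    m ((p : ℤ) ^ blockDefect p b * (blockRank p b : ℤ))
    (by
      intro j hj
      have Dj := hDj j hj
      have h3 := sum_mS_diag Dj.hM H (y ^ j) ⟨n, Dj.hn⟩ Dj.hyH Dj.hcomm Dj.hC Dj.hind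
      push_cast
      rw [← h3, Finset.mul_sum]
      apply Finset.sum_congr rfl; intro χ _
      split_ifs <;> simp)
    (by
      intro χ hχ
      obtain ⟨E, hE, hsum⟩ := vec_parseval hp (KS p b) (fun ζ => (cZ H χ ζ : ℤ)) (lamS D) hμ
        m hm hq
      have hF : ∑ j ∈ Jp p n,
          (p : ℂ) ^ blockDefect p b * mS p H b (y ^ j) (χ : G → ℂ) (χ : G → ℂ)
          = ((p ^ n : ℕ) : ℂ) * (E : ℂ) := by
        rw [← hsum]; apply Finset.sum_congr rfl; intro j _; exact F_expand D j χ χ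
      refine ⟨E, ?_, hF⟩
      rcases hE with hE | hE
      · exfalso
        rw [hE, Int.cast_zero, mul_zero] at hF
        have := eq_zero_of_sum_ofReal
          (fun j => (p : ℝ) ^ blockDefect p b * rowR p H b B (y ^ j) (χ : G → ℂ))
          (fun j _ => mul_nonneg (by positivity) (rowR_nonneg _ _))
          (fun j hj => diag_real (hDj j hj) _) hF 1 h1J
        exact diag_ne_zero D1 hd hχ this
      · linarith)

end Cfsg.Agent.Lib.Helper81.RK
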