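import Cfsg.Agent.Lib.Helper81.RK.RIX
import Cfsg.Agent.Lib.Helper81.RK.MCQ
import Cfsg.Agent.Lib.Helper81.CentralQuot

set_option autoImplicit false
set_option linter.unusedSectionVars false
open Cfsg
open scoped ComplexConjugate
open Cfsg.Agent.Lib.Helper20 Cfsg.Agent.Lib.Helper81 Cfsg.Agent.Lib.Helper81.CY3
open Cfsg.Agent.Lib.Helper21 (inflIrr inflIrr_coe)

namespace Cfsg.Agent.Lib.Helper81.RK

variable {G : Type*} [Group G] [Fintype G] {p : ℕ} [Fact p.Prime] {M : Ideal AlgInt}

theorem qkq (hM : IsPModular p M) {b : Set (IrrCharacter G)} (hb : IsPBlock M b) {z : G}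
    (hz : z ∈ Subgroup.center G) {n : ℕ} (hn : orderOf z = p ^ n) [(Subgroup.zpowers z).Normal]
    [Fintype (G ⧸ Subgroup.zpowers z)]
    (hd : blockDefect p b = blockDefect p (quotBlock (Subgroup.zpowers z) b) + n)
    [Fintype (IrrCharacter G)] [Fintype (IrrCharacter (G ⧸ Subgroup.zpowers z))] (m : ℤ)
    (h : ∀ f, qK (KS p (quotBlock (Subgroup.zpowers z) b)) f = 0 ∨
      m ≤ qK (KS p (quotBlock (Subgroup.zpowers z) b)) f) :
    ∀ f, qK (KS p b) f = 0 ∨ m ≤ qK (KS p b) f := by
  classical
  intro f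
  obtain ⟨f', hsupp, hq⟩ := exists_supported hM hb hz hn f
  rw [hq]
  have hN : IsPGroup p (Subgroup.zpowers z) := by
    apply IsPGroup.of_card (n := n)
    rw [Nat.card_zpowers, hn]
  have hc : Subgroup.zpowers z ≤ Subgroup.center G := by
    rw [Subgroup.zpowers_le]; exact hz
  have hcard : Nat.card (Subgroup.zpowers z) = p ^ n := by rw [Nat.card_zpowers, hn]
  have hk : ∀ η ∈ quotBlock (Subgroup.zpowers z) b, ∀ η' ∈ quotBlock (Subgroup.zpowers z) b,
      kC p b (inflIrr (Subgroup.zpowers z) η) (inflIrr (Subgroup.zpowers z) η')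
        = kC p (quotBlock (Subgroup.zpowers z) b) η η' := by
    intro η hη η' hη'
    have h1 := kC_spec hM (B := b) (inflIrr (Subgroup.zpowers z) η)
      (ψ := inflIrr (Subgroup.zpowers z) η') hη'
    have h2 := kC_spec hM (B := quotBlock (Subgroup.zpowers z) b) η (ψ := η') hη'
    have h3 := mcq (Subgroup.zpowers z) hN hc hcard (η : G ⧸ Subgroup.zpowers z → ℂ)
      (η' : G ⧸ Subgroup.zpowers z → ℂ)
    rw [inflIrr_coe, inflIrr_coe, hd, pow_add, mul_assoc, h3, ← h2] at h1
    exact_mod_cast h1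
  have key : qK (KS p b) f' = qK (KS p (quotBlock (Subgroup.zpowers z) b))
      (fun η => f' (inflIrr (Subgroup.zpowers z) η)) := by
    unfold qK
    have e1 : ∀ i : IrrCharacter G, ∑ j : IrrCharacter G, KS p b i j * f' i * f' j
        = if i ∈ b ∧ lam z (i : G → ℂ) = 1 then
            ∑ j : IrrCharacter G, KS p b i j * f' i * f' j else 0 := by
      intro i
      split_ifs with hi
      · rfl
      · apply Finset.sum_eq_zero; intro j _
        rw [hsupp i hi]; ring
    rw [Finset.sum_congr rfl (fun i _ => e1 i), rix hz b]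
    apply Finset.sum_congr rfl; intro η _
    have e2 : ∀ j : IrrCharacter G, KS p b (inflIrr (Subgroup.zpowers z) η) j
          * f' (inflIrr (Subgroup.zpowers z) η) * f' j
        = if j ∈ b ∧ lam z (j : G → ℂ) = 1 then KS p b (inflIrr (Subgroup.zpowers z) η) j
          * f' (inflIrr (Subgroup.zpowers z) η) * f' j else 0 := by
      intro j
      split_ifs with hj
      · rfl
      · rw [hsupp j hj]; ring
    rw [Finset.sum_congr rfl (fun j _ => e2 j), rix hz b]
    by_cases hη : η ∈ quotBlock (Subgroup.zpowers z) b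
    · rw [if_pos hη]
      apply Finset.sum_congr rfl; intro η' _
      by_cases hη' : η' ∈ quotBlock (Subgroup.zpowers z) b
      · rw [if_pos hη']
        simp only [KS]
        rw [if_pos ⟨hη, hη'⟩, if_pos ⟨hη, hη'⟩, hk η hη η' hη']
      · rw [if_neg hη']
        simp only [KS]
        rw [if_neg (fun hh : η ∈ quotBlock (Subgroup.zpowers z) b ∧
          η' ∈ quotBlock (Subgroup.zpowers z) b => hη' hh.2)]
        ring
    · rw [if_neg hη]
      symm
      apply Finset.sum_eq_zero; intro η' _
      simp only [KS]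
      rw [if_neg (fun hh : η ∈ quotBlock (Subgroup.zpowers z) b ∧
          η' ∈ quotBlock (Subgroup.zpowers z) b => hη hh.1)]
      ring
  rw [key]
  exact h _

end Cfsg.Agent.Lib.Helper81.RK
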