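import Cfsg.Agent.Lib.Helper81.CentralQuot
import Cfsg.Agent.Lib.Helper81.CY3.Defs

set_option autoImplicit false
set_option linter.unusedSectionVars false
open Cfsg
open scoped ComplexConjugate
open Cfsg.Agent.Lib.Helper20 Cfsg.Agent.Lib.Helper81 Cfsg.Agent.Lib.Helper81.CY3

namespace Cfsg.Agent.Lib.Helper81.RK

open Classical in
theorem redx_pure {I : Type*} [Fintype I] (B X Y : Set I) (hU : B = X ∪ Y) (hd : Disjoint X Y)
    (δ : I → ℤ) (δ₀ : ℤ) (h0 : δ₀ = 1 ∨ δ₀ = -1) (a : I → ℂ)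
    (rel : ∀ ψ ∈ Y, (δ₀ : ℂ) * a ψ + ∑ᶠ χ ∈ X, (δ χ : ℂ) * a χ = 0) (f : I → ℤ) :
    ∑ ζ, (if ζ ∈ B then (f ζ : ℂ) else 0) * a ζ =
      ∑ ζ, (if ζ ∈ B then
        (((if ζ ∈ X then f ζ - δ₀ * δ ζ * ∑ ψ, (if ψ ∈ Y then f ψ else 0) else 0 : ℤ)) : ℂ)
          else 0) * a ζ := by
  have hS : ∑ᶠ χ ∈ X, (δ χ : ℂ) * a χ = ∑ χ, (if χ ∈ X then (δ χ : ℂ) * a χ else 0) := by
    rw [finsum_mem_def, finsum_eq_sum_of_fintype]
    exact Finset.sum_congr rfl (fun χ _ => by rw [Set.indicator_apply])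
  set S : ℂ := ∑ χ, (if χ ∈ X then (δ χ : ℂ) * a χ else 0) with hSdef
  have h00 : (δ₀ : ℂ) * (δ₀ : ℂ) = 1 := by
    rcases h0 with h | h <;> simp [h]
  have ha : ∀ ψ ∈ Y, a ψ = - (δ₀ : ℂ) * S := by
    intro ψ hψ
    have h1 := rel ψ hψ
    rw [hS] at h1
    linear_combination (δ₀ : ℂ) * h1 - a ψ * h00
  set T : ℤ := ∑ ψ, (if ψ ∈ Y then f ψ else 0) with hT
  have hL : ∀ ζ, (if ζ ∈ B then (f ζ : ℂ) else 0) * a ζ =
      (if ζ ∈ X then (f ζ : ℂ) * a ζ else 0) + ((if ζ ∈ Y then f ζ else 0 : ℤ) : ℂ) * (- (δ₀ : ℂ) * S) := by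
    intro ζ
    by_cases hX : ζ ∈ X
    · have hY : ζ ∉ Y := fun hY => (Set.disjoint_left.mp hd) hX hY
      have hB : ζ ∈ B := by rw [hU]; exact Or.inl hX
      simp [hX, hY, hB]
    · by_cases hY : ζ ∈ Y
      · have hB : ζ ∈ B := by rw [hU]; exact Or.inr hY
        simp [hX, hY, hB, ha ζ hY]
      · have hB : ζ ∉ B := by rw [hU]; exact fun h => h.elim hX hY
        simp [hX, hY, hB]
  have hR : ∀ ζ, (if ζ ∈ B then
        (((if ζ ∈ X then f ζ - δ₀ * δ ζ * T else 0 : ℤ)) : ℂ) else 0) * a ζ =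
      (if ζ ∈ X then (f ζ : ℂ) * a ζ else 0) - (δ₀ : ℂ) * (T : ℂ) * (if ζ ∈ X then (δ ζ : ℂ) * a ζ else 0) := by
    intro ζ
    by_cases hX : ζ ∈ X
    · have hB : ζ ∈ B := by rw [hU]; exact Or.inl hX
      simp only [hX, hB, if_true]
      push_cast
      ring
    · simp [hX]
  rw [Finset.sum_congr rfl (fun ζ _ => hL ζ), Finset.sum_congr rfl (fun ζ _ => hR ζ),
    Finset.sum_add_distrib, Finset.sum_sub_distrib, ← Finset.sum_mul, ← Finset.mul_sum, ← hSdef,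
    ← Int.cast_sum, ← hT]
  ring

variable {G : Type*} [Group G] [Fintype G] {p : ℕ} [Fact p.Prime] {M : Ideal AlgInt}

/-- REDX. -/
theorem redx (hM : IsPModular p M) {B X Y : Set (IrrCharacter G)} {e t : ℕ}
    {δ : IrrCharacter G → ℤ} {δ₀ : ℤ} (hs : Shape p B X Y e t δ δ₀) [Fintype (IrrCharacter G)]
    (f : IrrCharacter G → ℤ) :
    ∃ f' : IrrCharacter G → ℤ, (∀ χ, χ ∉ X → f' χ = 0) ∧ qK (KS p B) f = qK (KS p B) f' := by
  classical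
  refine ⟨fun ζ => if ζ ∈ X then f ζ - δ₀ * δ ζ * ∑ ψ, (if ψ ∈ Y then f ψ else 0) else 0, ?_, ?_⟩
  · intro χ hχ
    simp [hχ]
  · apply qK_congr_reg hM B
    funext g
    by_cases hg : IsPRegular p g
    · simp only [pRegularPart_eq, hg, if_true]
      unfold phiS
      simp only [Finset.sum_apply, Pi.smul_apply, smul_eq_mul]
      exact redx_pure B X Y hs.union hs.disj δ δ₀ hs.sign0 (fun ζ => (ζ : G → ℂ) g)
        (fun ψ hψ => hs.rel ψ hψ g hg) f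
    · simp only [pRegularPart_eq, hg, if_false]

end Cfsg.Agent.Lib.Helper81.RK
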