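import Cfsg.Agent.Lib.Helper81.QuotBlock

/-! LADDER RK (owner helper81) = S4697, rung RIX. -/

set_option autoImplicit false
set_option linter.unusedSectionVars false
open Cfsg
open scoped ComplexConjugate
open Cfsg.Agent.Lib.Helper20 Cfsg.Agent.Lib.Helper81
open Cfsg.Agent.Lib.Helper21 (inflIrr inflIrr_coe)

namespace Cfsg.Agent.Lib.Helper81.RK

variable {G : Type*} [Group G] [Fintype G] {p : ℕ} [Fact p.Prime] {M : Ideal AlgInt}

theorem rix_iff {z : G} (hz : z ∈ Subgroup.center G) (ξ : IrrCharacter G) :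
    lam z (ξ : G → ℂ) = 1 ↔ ∀ x ∈ Subgroup.zpowers z, (ξ : G → ℂ) x = (ξ : G → ℂ) 1 := by
  constructor
  · intro h x hx
    obtain ⟨k, rfl⟩ := (mem_powers_iff_mem_zpowers.2 hx)
    have := irr_central_pow_mul ξ.2 hz k 1
    rw [h, one_pow, one_mul, mul_one] at this
    exact this
  · intro h
    have h1 := h z (Subgroup.mem_zpowers z)
    have h10 := irr_one_ne_zero ξ.2
    unfold lam
    rw [h1, div_self h10]

open Classical in
theorem rix {z : G} (hz : z ∈ Subgroup.center G) [(Subgroup.zpowers z).Normal]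
    (b : Set (IrrCharacter G)) [Fintype (IrrCharacter G)]
    [Fintype (IrrCharacter (G ⧸ Subgroup.zpowers z))] {A : Type*} [AddCommMonoid A]
    (F : IrrCharacter G → A) :
    ∑ ξ : IrrCharacter G, (if ξ ∈ b ∧ lam z (ξ : G → ℂ) = 1 then F ξ else 0)
      = ∑ η : IrrCharacter (G ⧸ Subgroup.zpowers z),
          (if η ∈ quotBlock (Subgroup.zpowers z) b then F (inflIrr (Subgroup.zpowers z) η) else 0) := by
  calc ∑ ξ : IrrCharacter G, (if ξ ∈ b ∧ lam z (ξ : G → ℂ) = 1 then F ξ else 0)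
      = ∑ ξ : IrrCharacter G, (if (∀ x ∈ Subgroup.zpowers z, (ξ : G → ℂ) x = (ξ : G → ℂ) 1) then
          (if ξ ∈ b then F ξ else 0) else 0) := by
        apply Finset.sum_congr rfl
        intro ξ _
        have h := rix_iff hz ξ
        by_cases h1 : ξ ∈ b
        · by_cases h2 : lam z (ξ : G → ℂ) = 1
          · rw [if_pos ⟨h1, h2⟩, if_pos (h.1 h2), if_pos h1]
          · rw [if_neg (fun hh => h2 hh.2), if_neg (fun hh => h2 (h.2 hh))]
        · rw [if_neg (fun hh => h1 hh.1), if_neg h1]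
          simp
    _ = ∑ ξ : {χ : IrrCharacter G // ∀ x ∈ Subgroup.zpowers z, (χ : G → ℂ) x = (χ : G → ℂ) 1},
          (if ξ.1 ∈ b then F ξ.1 else 0) := by
        rw [← Finset.sum_filter]
        exact Finset.sum_subtype _ (fun x => by simp) _
    _ = ∑ η : IrrCharacter (G ⧸ Subgroup.zpowers z),
          (if (Cfsg.Agent.Lib.Helper82.irrQuotEquiv (Subgroup.zpowers z) η).1 ∈ b then
            F (Cfsg.Agent.Lib.Helper82.irrQuotEquiv (Subgroup.zpowers z) η).1 else 0) :=
        (Equiv.sum_comp (Cfsg.Agent.Lib.Helper82.irrQuotEquiv (Subgroup.zpowers z))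
          (fun ξ => if ξ.1 ∈ b then F ξ.1 else 0)).symm
    _ = _ := rfl

end Cfsg.Agent.Lib.Helper81.RK
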