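import Cfsg.Agent.Lib.Helper81.QuotBlock
import Cfsg.Agent.Lib.Helper81.RankSum
import Cfsg.Agent.Lib.Helper81.RK.RIX
import Cfsg.Agent.Lib.Helper81.RK.MCQ

/-! LADDER RK (owner helper81) = S4697, rung RKQ. -/

set_option autoImplicit false
set_option linter.unusedSectionVars false
open Cfsg
open scoped ComplexConjugate
open Cfsg.Agent.Lib.Helper20 Cfsg.Agent.Lib.Helper81
open Cfsg.Agent.Lib.Helper21 (inflIrr inflIrr_coe)

namespace Cfsg.Agent.Lib.Helper81.RK

variable {G : Type*} [Group G] [Fintype G] {p : ℕ} [Fact p.Prime] {M : Ideal AlgInt}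

theorem rkq (hM : IsPModular p M) {b : Set (IrrCharacter G)} (hb : IsPBlock M b) {z : G}
    (hz : z ∈ Subgroup.center G) {n : ℕ} (hn : orderOf z = p ^ n) [(Subgroup.zpowers z).Normal] :
    blockRank p b = blockRank p (quotBlock (Subgroup.zpowers z) b) := by
  classical
  have : Fintype (G ⧸ Subgroup.zpowers z) := Fintype.ofFinite _
  have : Finite (IrrCharacter G) := finite_irrCharacter
  have : Finite (IrrCharacter (G ⧸ Subgroup.zpowers z)) := finite_irrCharacter
  have : Fintype (IrrCharacter G) := Fintype.ofFinite _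
  have : Fintype (IrrCharacter (G ⧸ Subgroup.zpowers z)) := Fintype.ofFinite _
  have hcard : Nat.card (Subgroup.zpowers z) = p ^ n := by rw [Nat.card_zpowers, hn]
  have hN : IsPGroup p (Subgroup.zpowers z) := IsPGroup.of_card hcard
  have hc : Subgroup.zpowers z ≤ Subgroup.center G := by
    rw [Subgroup.zpowers_le]; exact hz
  have hqb := isPBlock_quotBlock hM hb (Subgroup.zpowers z) hN hc
  have h1 := trace_X hM hb hz hn
  have h2 := blockRank_eq_sum_mC hM _ hqb
  have h3 := rix hz b (fun ξ => mC p (ξ : G → ℂ) (ξ : G → ℂ))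
  apply Nat.cast_injective (R := ℂ)
  rw [← h1, h2, Finset.mul_sum]
  rw [← Finset.mul_sum]
  convert_to (p : ℂ) ^ n * ∑ η : IrrCharacter (G ⧸ Subgroup.zpowers z),
          (if η ∈ quotBlock (Subgroup.zpowers z) b then
            mC p (inflIrr (Subgroup.zpowers z) η : G → ℂ) (inflIrr (Subgroup.zpowers z) η : G → ℂ) else 0) = _
  · congr 1
  rw [Finset.mul_sum]
  apply Finset.sum_congr rfl
  intro η _
  by_cases hη : η ∈ quotBlock (Subgroup.zpowers z) b
  · rw [if_pos hη, if_pos hη, inflIrr_coe]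
    exact mcq (Subgroup.zpowers z) hN hc hcard _ _
  · rw [if_neg hη, if_neg hη, mul_zero]

end Cfsg.Agent.Lib.Helper81.RK
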