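import Cfsg.Agent.Lib.Helper81.RK.QKQ
import Cfsg.Agent.Lib.Helper81.RK.IMG
import Cfsg.Agent.Lib.Helper81.RK.DEFQ
import Cfsg.Agent.Lib.Helper81.RK.MAJ
import Cfsg.Agent.Lib.Helper81.RK.CMIN
import Cfsg.Agent.Lib.Helper81.RK.RKQ
import Cfsg.Agent.Lib.Helper81.RK.GENS2
import Cfsg.Agent.Lib.Helper81.RK.GENS3
import Cfsg.Agent.Lib.Helper81.RK.MMG
import Cfsg.Agent.Lib.Helper81.RK.CYC

set_option autoImplicit false
set_option linter.unusedSectionVars false
set_option linter.style.haveILetI false
open Cfsg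
open scoped ComplexConjugate
open Cfsg.Agent.Lib.Helper20 Cfsg.Agent.Lib.Helper81 Cfsg.Agent.Lib.Helper81.CY3

namespace Cfsg.Agent.Lib.Helper81.RK

universe u

/-- `k(B) ≤ |D|` for an abelian defect group generated by two elements -/
theorem rk2 {p : ℕ} [Fact p.Prime] {M : Ideal AlgInt} (hM : IsPModular p M) {G : Type u} [Group G]
    [Fintype G] {B : Set (IrrCharacter G)} (hB : IsPBlock M B) {D : Subgroup G}
    (hBD : IsDefectGroup p M B D) (hab : ∀ x ∈ D, ∀ y ∈ D, x * y = y * x) {u v : G}
    (hD : D = Subgroup.closure {u, v}) : Nat.card B ≤ Nat.card D := by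
  classical
  have hp : p.Prime := Fact.out
  haveI : Finite (IrrCharacter G) := finite_irrCharacter
  haveI : Fintype (IrrCharacter G) := Fintype.ofFinite _
  have e : Nat.card B = ∑ χ : IrrCharacter G, (if χ ∈ B then 1 else 0) := by
    rw [Nat.card_eq_fintype_card, Fintype.card_subtype, Finset.card_filter]
  have e2 : ((∑ χ : IrrCharacter G, (if χ ∈ B then 1 else 0) : ℕ) : ℤ)
      = ∑ χ : IrrCharacter G, (if χ ∈ B then (1 : ℤ) else 0) := by
    push_cast
    rfl
  have huD : u ∈ D := by rw [hD]; exact Subgroup.subset_closure (by simp)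
  obtain ⟨β, n, SD, hdβ, hβD⟩ := maj hM hB hBD hab huD
  haveI : Fintype (Subgroup.centralizer ({u} : Set G)) := Fintype.ofFinite _
  haveI : Finite (IrrCharacter (Subgroup.centralizer ({u} : Set G))) := finite_irrCharacter
  haveI : Fintype (IrrCharacter (Subgroup.centralizer ({u} : Set G))) := Fintype.ofFinite _
  have hβ : IsPBlock M β := SD.hind.1
  set zH : Subgroup.centralizer ({u} : Set G) := ⟨u, SD.hyH⟩ with hzH
  have hzc : zH ∈ Subgroup.center (Subgroup.centralizer ({u} : Set G)) := SD.center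
  have hzo : orderOf zH = p ^ n := SD.orderOf_mk
  have hle : Subgroup.zpowers zH ≤ Subgroup.center (Subgroup.centralizer ({u} : Set G)) := by
    rw [Subgroup.zpowers_le]; exact hzc
  haveI : (Subgroup.zpowers zH).Normal := normal_of_le_center hle
  haveI : Fintype (Subgroup.centralizer ({u} : Set G) ⧸ Subgroup.zpowers zH) := Fintype.ofFinite _
  haveI : Finite (IrrCharacter (Subgroup.centralizer ({u} : Set G) ⧸ Subgroup.zpowers zH)) :=
    finite_irrCharacter
  haveI : Fintype (IrrCharacter (Subgroup.centralizer ({u} : Set G) ⧸ Subgroup.zpowers zH)) :=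
    Fintype.ofFinite _
  have hN : IsPGroup p (Subgroup.zpowers zH) := by
    apply IsPGroup.of_card (n := n)
    rw [Nat.card_zpowers, hzo]
  have hzD : zH ∈ D.subgroupOf (Subgroup.centralizer ({u} : Set G)) := by
    rw [Subgroup.mem_subgroupOf]; exact huD
  obtain ⟨hDq, hdq⟩ := defq hM hβ hzc hzo hβD hzD
  have hq := isPBlock_quotBlock hM hβ (Subgroup.zpowers zH) hN hle
  have hDH : D ≤ Subgroup.centralizer ({u} : Set G) := by
    intro d hd
    rw [Subgroup.mem_centralizer_iff]
    intro w hw
    rw [Set.mem_singleton_iff] at hw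
    rw [hw]
    exact hab u huD d hd
  obtain ⟨v', hv'⟩ := img2 hDH hD zH rfl
  have hcD := Cfsg.Agent.Lib.Helper21.card_defectGroup hM B hB D hBD
  have key : ∑ χ : IrrCharacter G, (if χ ∈ B then (1 : ℤ) else 0) ≤ (p : ℤ) ^ blockDefect p β := by
    by_cases hbot : (D.subgroupOf (Subgroup.centralizer ({u} : Set G))).map
        (QuotientGroup.mk' (Subgroup.zpowers zH)) = ⊥
    · have h1 := Cfsg.Agent.Lib.Helper21.card_defectGroup hM _ hq _ hDq
      rw [hbot, Subgroup.card_bot] at h1
      have hd0 : blockDefect p (quotBlock (Subgroup.zpowers zH) β) = 0 := by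
        by_contra h0
        have : 1 < p ^ blockDefect p (quotBlock (Subgroup.zpowers zH) β) :=
          Nat.one_lt_pow h0 hp.one_lt
        omega
      have hc1 : Nat.card (quotBlock (Subgroup.zpowers zH) β) ≤ 1 := by
        rw [Finite.card_le_one_iff_subsingleton]
        exact ⟨fun a b => Subtype.ext (eq_of_defect_zero hM hq hd0 a.2 b.2)⟩
      have hl1 := blockRank_le_card_ker hM hβ hzc hzo
      have hl2 := card_ker_le_quotBlock (b := β) hzc
      exact major_rank_two SD hdβ (by omega)
    · have hcyc : IsCyclic ((D.subgroupOf (Subgroup.centralizer ({u} : Set G))).map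
          (QuotientGroup.mk' (Subgroup.zpowers zH))) := by
        rw [hv']; infer_instance
      obtain ⟨e', t, X, Y, δ, δ₀, he1, ht1, hq', hl, hs⟩ := exists_shape hM hq hDq hcyc hbot
      have hmin := cmin hM hq hs he1 ht1 hl hq'
      have hmin' := qkq hM hβ hzc hzo hdq _ hmin
      rw [← rkq hM hβ hzc hzo] at hmin'
      exact major_min SD hdβ hmin'
  rw [hdβ, ← e2, ← e] at key
  rw [hcD]
  exact_mod_cast key

end Cfsg.Agent.Lib.Helper81.RK
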