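import Cfsg.Agent.Lib.Helper81.RK.RK2

set_option autoImplicit false
set_option linter.unusedSectionVars false
set_option linter.style.haveILetI false
open Cfsg
open scoped ComplexConjugate
open Cfsg.Agent.Lib.Helper20 Cfsg.Agent.Lib.Helper81 Cfsg.Agent.Lib.Helper81.CY3

namespace Cfsg.Agent.Lib.Helper81.RK

universe u

/-- `k(B)^3 ≤ |D|^5` for an abelian defect group generated by three elements -/
theorem rk3 {p : ℕ} [Fact p.Prime] {M : Ideal AlgInt} (hM : IsPModular p M) {G : Type u} [Group G]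
    [Fintype G] {B : Set (IrrCharacter G)} (hB : IsPBlock M B) {D : Subgroup G}
    (hBD : IsDefectGroup p M B D) (hab : ∀ x ∈ D, ∀ y ∈ D, x * y = y * x) {u v w : G}
    (hD : D = Subgroup.closure {u, v, w}) (hord : Nat.card D ≤ orderOf u ^ 3) :
    Nat.card B ^ 3 ≤ Nat.card D ^ 5 := by
  classical
  have hp : p.Prime := Fact.out
  haveI : Finite (IrrCharacter G) := finite_irrCharacter
  haveI : Fintype (IrrCharacter G) := Fintype.ofFinite _
  have e : Nat.card B = ∑ χ : IrrCharacter G, (if χ ∈ B then 1 else 0) := by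
    rw [Nat.card_eq_fintype_card, Fintype.card_subtype, Finset.card_filter]
  have e2 : ((∑ χ : IrrCharacter G, (if χ ∈ B then 1 else 0) : ℕ) : ℤ)
      = ∑ χ : IrrCharacter G, (if χ ∈ B then (1 : ℤ) else 0) := by
    push_cast
    rfl
  have huD : u ∈ D := by rw [hD]; exact Subgroup.subset_closure (by simp)
  obtain ⟨β, n, SD, hdβ, hβD⟩ := maj hM hB hBD hab huD
  haveI : Fintype (Subgroup.centralizer ({u} : Set G)) := Fintype.ofFinite _
  haveI : Finite (IrrCharacter (Subgroup.centralizer ({u} : Set G))) := finite_irrCharacter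
  haveI : Fintype (IrrCharacter (Subgroup.centralizer ({u} : Set G))) := Fintype.ofFinite _
  have hβ : IsPBlock M β := SD.hind.1
  set zH : Subgroup.centralizer ({u} : Set G) := ⟨u, SD.hyH⟩ with hzH
  have hzc : zH ∈ Subgroup.center (Subgroup.centralizer ({u} : Set G)) := SD.center
  have hzo : orderOf zH = p ^ n := SD.orderOf_mk
  have hle : Subgroup.zpowers zH ≤ Subgroup.center (Subgroup.centralizer ({u} : Set G)) := by
    rw [Subgroup.zpowers_le]; exact hzc
  haveI : (Subgroup.zpowers zH).Normal := normal_of_le_center hle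
  haveI : Fintype (Subgroup.centralizer ({u} : Set G) ⧸ Subgroup.zpowers zH) := Fintype.ofFinite _
  have hN : IsPGroup p (Subgroup.zpowers zH) := by
    apply IsPGroup.of_card (n := n)
    rw [Nat.card_zpowers, hzo]
  have hzD : zH ∈ D.subgroupOf (Subgroup.centralizer ({u} : Set G)) := by
    rw [Subgroup.mem_subgroupOf]; exact huD
  obtain ⟨hDq, hdq⟩ := defq hM hβ hzc hzo hβD hzD
  have hq := isPBlock_quotBlock hM hβ (Subgroup.zpowers zH) hN hle
  have hDH : D ≤ Subgroup.centralizer ({u} : Set G) := by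
    intro d hd
    rw [Subgroup.mem_centralizer_iff]
    intro w hw
    rw [Set.mem_singleton_iff] at hw
    rw [hw]
    exact hab u huD d hd
  obtain ⟨v', w', hvw⟩ := img3 hDH hD zH rfl
  have hcD := Cfsg.Agent.Lib.Helper21.card_defectGroup hM B hB D hBD
  have habq : ∀ x ∈ (D.subgroupOf (Subgroup.centralizer ({u} : Set G))).map
      (QuotientGroup.mk' (Subgroup.zpowers zH)), ∀ y ∈ (D.subgroupOf
      (Subgroup.centralizer ({u} : Set G))).map (QuotientGroup.mk' (Subgroup.zpowers zH)),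
      x * y = y * x := by
    rintro _ ⟨a, ha, rfl⟩ _ ⟨b, hb, rfl⟩
    rw [← map_mul, ← map_mul]
    congr 1
    exact Subtype.ext (hab a (Subgroup.mem_subgroupOf.1 ha) b (Subgroup.mem_subgroupOf.1 hb))
  have h2 := rk2 hM hq hDq habq hvw
  rw [Cfsg.Agent.Lib.Helper21.card_defectGroup hM _ hq _ hDq] at h2
  have hl1 := blockRank_le_card_ker hM hβ hzc hzo
  have hl2 := card_ker_le_quotBlock (b := β) hzc
  have hl : blockRank p β ≤ p ^ blockDefect p (quotBlock (Subgroup.zpowers zH) β) :=
    le_trans hl1 (le_trans hl2 h2)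
  have key := major_min_gen SD hdβ 1 (by norm_num) (fun f => by
    have h0 := qK_KS_nonneg hM β f
    omega)
  rw [one_mul, hdβ, ← e2, ← e] at key
  have key' : Nat.card B ≤ p ^ blockDefect p B * blockRank p β := by exact_mod_cast key
  obtain ⟨d, hd⟩ : ∃ d, d = blockDefect p B := ⟨_, rfl⟩
  obtain ⟨d', hd'⟩ : ∃ d', d' = blockDefect p (quotBlock (Subgroup.zpowers zH) β) := ⟨_, rfl⟩
  rw [← hd] at key' hcD hdβ
  rw [← hd'] at hl hdq
  have h3 : Nat.card B ≤ p ^ (d + d') := by
    rw [pow_add]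
    exact le_trans key' (Nat.mul_le_mul_left _ hl)
  have h4 : d ≤ 3 * n := by
    rw [hcD, SD.hn, ← pow_mul] at hord
    have := (Nat.pow_le_pow_iff_right hp.one_lt).1 hord
    omega
  rw [hcD, ← pow_mul]
  calc Nat.card B ^ 3 ≤ (p ^ (d + d')) ^ 3 := Nat.pow_le_pow_left h3 3
    _ = p ^ ((d + d') * 3) := (pow_mul _ _ _).symm
    _ ≤ p ^ (d * 5) := Nat.pow_le_pow_right hp.pos (by omega)

end Cfsg.Agent.Lib.Helper81.RK
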